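import Cfsg.Agent.L168.Facts

/-!
Four-groups, their normalisers, and subgroups in the model of the simple group of order 168.
-/

set_option autoImplicit false

namespace CfsgLib.L168

/-- The stabiliser of the point `1`. -/
def N1 : Subgroup T where
  carrier := {g | g.ev 1 = 1}
  one_mem' := ev_one 1
  mul_mem' := by
    intro g h hg hh
    show (g * h).ev 1 = 1
    rw [ev_mul, show h.ev 1 = 1 from hh, show g.ev 1 = 1 from hg]
  inv_mem' := by
    intro g hg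
    show g⁻¹.ev 1 = 1
    conv_lhs => rw [← show g.ev 1 = 1 from hg]
    rw [← ev_mul, inv_mul_cancel, ev_one]

instance (g : T) : Decidable (g ∈ N1) := inferInstanceAs (Decidable (g.ev 1 = 1))

theorem N2_closed : ∀ g : T, g.ev 2 % 2 = 0 → g.ev 4 % 2 = 0 →
    ∀ v : Fin 8, v % 2 = 0 → g.ev v % 2 = 0 ∧ g⁻¹.ev v % 2 = 0 := by decide +kernel

/-- The stabiliser of the plane of even numbers. -/
def N2 : Subgroup T where
  carrier := {g | g.ev 2 % 2 = 0 ∧ g.ev 4 % 2 = 0}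
  one_mem' := by decide +kernel
  mul_mem' := by
    intro g h hg hh
    refine ⟨?_, ?_⟩
    · rw [ev_mul]; exact (N2_closed g hg.1 hg.2 _ hh.1).1
    · rw [ev_mul]; exact (N2_closed g hg.1 hg.2 _ hh.2).1
  inv_mem' := by
    intro g hg
    exact ⟨(N2_closed g hg.1 hg.2 2 (by decide)).2, (N2_closed g hg.1 hg.2 4 (by decide)).2⟩

instance (g : T) : Decidable (g ∈ N2) := inferInstanceAs (Decidable (g.ev 2 % 2 = 0 ∧ g.ev 4 % 2 = 0))

/-- The four-group of `N1`. -/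
def l1 : List T := allT.filter fun g => g.ev 1 = 1 ∧ (g.ev 2 = 2 ∨ g.ev 2 = 3) ∧ (g.ev 4 = 4 ∨ g.ev 4 = 5)

/-- The four-group of `N2`. -/
def l2 : List T := allT.filter fun g => g.ev 2 = 2 ∧ g.ev 4 = 4 ∧ (g.ev 1).val % 2 = 1

theorem l1_closed : (1 : T) ∈ l1 ∧ (∀ x ∈ l1, x * x = 1 ∧ ∀ y ∈ l1, x * y ∈ l1) ∧ l1.length = 4 := by decide +kernel

theorem l2_closed : (1 : T) ∈ l2 ∧ (∀ x ∈ l2, x * x = 1 ∧ ∀ y ∈ l2, x * y ∈ l2) ∧ l2.length = 4 := by decide +kernel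

theorem l1_norm : ∀ g : T, (∀ x ∈ l1, g * x * g⁻¹ ∈ l1) ↔ g ∈ N1 := by decide +kernel

theorem l2_norm : ∀ g : T, (∀ x ∈ l2, g * x * g⁻¹ ∈ l2) ↔ g ∈ N2 := by decide +kernel

theorem l1_not_conj_l2 : ∀ g : T, ∃ x ∈ l1, g * x * g⁻¹ ∉ l2 := by decide +kernel

/-- A change of basis moving the plane of even numbers. -/
def g2 : T := ⟨4, 1, 2, by decide⟩

theorem t0_mem_fours : (∀ x ∈ l1, t0 * x = x * t0) ∧ (∀ x ∈ l2, t0 * (g2 * x * g2⁻¹) = g2 * x * g2⁻¹ * t0) := by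
  decide +kernel

theorem pair_t0 : ∀ s ∈ invs, t0 * s = s * t0 → ∀ t ∈ invs, t0 * t = t * t0 → s * t = t * s → s ≠ 1 → t ≠ 1 →
    s ≠ t → (s ∈ l1 ∧ t ∈ l1) ∨ (g2⁻¹ * s * g2 ∈ l2 ∧ g2⁻¹ * t * g2 ∈ l2) := by decide +kernel

/-- A commuting pair of involutions generates a conjugate of one of the two four-groups. -/
theorem pair_fours (s : T) (hs : s * s = 1) (t : T) (ht : t * t = 1) (hs1 : s ≠ 1) (ht1 : t ≠ 1) (hst : s ≠ t)
    (hc : s * t = t * s) : ∃ g : T,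
    (g * s * g⁻¹ ∈ l1 ∧ g * t * g⁻¹ ∈ l1) ∨ (g * s * g⁻¹ ∈ l2 ∧ g * t * g⁻¹ ∈ l2) := by
  obtain ⟨x, rfl⟩ := invol_conj s hs1 hs
  have ht' : x⁻¹ * t * x ∈ invs := by
    refine List.mem_filter.2 ⟨mem_allT _, decide_eq_true ?_⟩
    rw [show x⁻¹ * t * x * (x⁻¹ * t * x) = x⁻¹ * (t * t) * x by group, ht]; group
  have ht0 : t0 ∈ invs := by decide +kernel
  have hc' : t0 * (x⁻¹ * t * x) = x⁻¹ * t * x * t0 := by
    rw [show t0 * (x⁻¹ * t * x) = x⁻¹ * (x * t0 * x⁻¹ * t) * x by group, hc]; group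
  rcases pair_t0 t0 ht0 rfl _ ht' hc' hc' (by decide +kernel)
    (fun e => ht1 (by rw [← conj_eq_one_iff (a := x⁻¹) (b := t), inv_inv]; exact e))
    (fun e => hst (by rw [e]; group)) with h | h
  · exact ⟨x⁻¹, Or.inl (by simpa [mul_assoc] using h)⟩
  · exact ⟨g2⁻¹ * x⁻¹, Or.inr (by simpa [mul_assoc] using h)⟩

/-- The third roots of unity permuted by `N1` and `N2`. -/
def thirds (p : T → Prop) [DecidablePred p] : List T :=
  (allT.filter fun g => p g ∧ g ≠ 1 ∧ g * g * g = 1).foldl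
    (fun acc g => if g⁻¹ ∈ acc then acc else acc ++ [g]) []

/-- The index of the subgroup generated by `g` in a list of generators. -/
def pos (l : List T) (g : T) : Fin 4 :=
  if l[0]? = some g ∨ l[0]? = some g⁻¹ then 0 else if l[1]? = some g ∨ l[1]? = some g⁻¹ then 1
  else if l[2]? = some g ∨ l[2]? = some g⁻¹ then 2 else 3

/-- Conjugation as a map on four subgroups of order three. -/
def permFun (l : List T) (g : T) (i : Fin 4) : Fin 4 := pos l (g * l.getD i.val 1 * g⁻¹)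

theorem perm_N1 : (∀ g ∈ allT.filter (· ∈ N1), Function.Bijective (permFun (thirds (· ∈ N1)) g) ∧
    (permFun (thirds (· ∈ N1)) g = id → g = 1) ∧ ∀ h ∈ allT.filter (· ∈ N1),
      permFun (thirds (· ∈ N1)) (g * h) = permFun (thirds (· ∈ N1)) g ∘ permFun (thirds (· ∈ N1)) h) ∧
    (allT.filter (· ∈ N1)).length = 24 := by decide +kernel

theorem perm_N2 : (∀ g ∈ allT.filter (· ∈ N2), Function.Bijective (permFun (thirds (· ∈ N2)) g) ∧
    (permFun (thirds (· ∈ N2)) g = id → g = 1) ∧ ∀ h ∈ allT.filter (· ∈ N2),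
      permFun (thirds (· ∈ N2)) (g * h) = permFun (thirds (· ∈ N2)) g ∘ permFun (thirds (· ∈ N2)) h) ∧
    (allT.filter (· ∈ N2)).length = 24 := by decide +kernel

theorem N_iso (N : Subgroup T) [DecidablePred (· ∈ N)] (l : List T)
    (h : (∀ g ∈ allT.filter (· ∈ N), Function.Bijective (permFun l g) ∧ (permFun l g = id → g = 1) ∧
      ∀ h ∈ allT.filter (· ∈ N), permFun l (g * h) = permFun l g ∘ permFun l h) ∧
      (allT.filter (· ∈ N)).length = 24) : Nonempty (N ≃* Equiv.Perm (Fin 4)) := by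
  have hm : ∀ g : N, (g : T) ∈ allT.filter (· ∈ N) := fun g => List.mem_filter.2 ⟨mem_allT _, decide_eq_true g.2⟩
  let f : N →* Equiv.Perm (Fin 4) := MonoidHom.mk' (fun g => Equiv.ofBijective _ (h.1 _ (hm g)).1)
    fun g k => Equiv.ext fun i => congrFun ((h.1 _ (hm g)).2.2 _ (hm k)) i
  have hi : Function.Injective f := by
    rw [injective_iff_map_eq_one]
    intro g hg
    exact Subtype.ext ((h.1 _ (hm g)).2.1 (funext fun i => congrArg (fun σ : Equiv.Perm (Fin 4) => σ i) hg))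
  have hc : Nat.card N = 24 := by
    rw [Nat.card_eq_fintype_card, Fintype.card_subtype, ← h.2]
    rfl
  exact ⟨MulEquiv.ofBijective f ((Nat.bijective_iff_injective_and_card f).2 ⟨hi, by
    rw [hc, Nat.card_perm, Nat.card_fin]; rfl⟩)⟩

theorem iso_N1 : Nonempty (N1 ≃* Equiv.Perm (Fin 4)) := N_iso N1 _ perm_N1

theorem iso_N2 : Nonempty (N2 ≃* Equiv.Perm (Fin 4)) := N_iso N2 _ perm_N2

/-- An element outside both stabilisers generates an element of order seven with `r3`. -/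
theorem seven_of_outside : r3 ∈ N1 ∧ r3 ∈ N2 ∧ ∀ x : T, x ∈ N1 ∨ x ∈ N2 ∨
    ∃ w ∈ [x, x * r3, x * r3 * r3, x * r3 * x * r3, x * r3 * x * r3 * r3, x * r3 * r3 * x * r3 * r3,
      x * r3 * x⁻¹ * r3, x * r3 * x⁻¹ * r3 * r3], w ≠ 1 ∧ w * w * w * (w * w * w) * w = 1 := by decide +kernel

end CfsgLib.L168
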