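import Cfsg.Agent.L168.Sylow

/-!
Transport from the model to any simple group of order 168.
-/

set_option autoImplicit false

namespace CfsgLib.L168

variable {G : Type*} [Group G] [Finite G]

theorem sylow_card [IsSimpleGroup G] (h : Nat.card G = 168) (S : Sylow 2 G) : Nat.card (S : Subgroup G) = 8 := by
  haveI : Fact (Nat.Prime 2) := ⟨Nat.prime_two⟩
  rw [S.card_eq_multiplicity, h, Nat.factorization_def _ Nat.prime_two, show (168 : ℕ) = 2 ^ 3 * 21 from rfl,
    padicValNat.mul (by norm_num) (by norm_num), padicValNat.prime_pow,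
    padicValNat.eq_zero_of_not_dvd (n := 21) (by norm_num)]
  norm_num

theorem exists_iso_sylow [IsSimpleGroup G] (h : Nat.card G = 168) (S : Sylow 2 G) :
    ∃ φ : T ≃* G, S0.map φ.toMonoidHom = (S : Subgroup G) := by
  haveI : Fact (Nat.Prime 2) := ⟨Nat.prime_two⟩
  obtain ⟨φ⟩ := nonempty_iso h
  have hc : Nat.card (S0.map φ.toMonoidHom) = 2 ^ (Nat.card G).factorization 2 := by
    rw [Subgroup.card_map_of_injective φ.injective, card_S0, ← sylow_card h S, S.card_eq_multiplicity]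
  obtain ⟨g, hg⟩ := MulAction.exists_smul_eq G (Sylow.ofCard _ hc) S
  refine ⟨φ.trans (MulAut.conj g), ?_⟩
  rw [← hg, Sylow.coe_subgroup_smul, Sylow.coe_ofCard,
    show (φ.trans (MulAut.conj g)).toMonoidHom = (MulAut.conj g).toMonoidHom.comp φ.toMonoidHom from rfl,
    ← Subgroup.map_map]
  rfl

theorem map_normalizer (φ : T ≃* G) (H : Subgroup T) :
    (Subgroup.normalizer (H : Set T)).map φ.toMonoidHom =
      Subgroup.normalizer ((H.map φ.toMonoidHom : Subgroup G) : Set G) := by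
  ext g
  obtain ⟨x, rfl⟩ := φ.surjective g
  rw [show φ x = φ.toMonoidHom x from rfl, Subgroup.mem_map_iff_mem φ.injective]
  simp only [Subgroup.mem_normalizer_iff]
  constructor
  · intro hx k
    obtain ⟨y, rfl⟩ := φ.surjective k
    rw [show φ y = φ.toMonoidHom y from rfl, Subgroup.mem_map_iff_mem φ.injective, ← map_inv, ← map_mul, ← map_mul,
      Subgroup.mem_map_iff_mem φ.injective]
    exact hx y
  · intro hx y
    have h1 := hx (φ.toMonoidHom y)
    rwa [Subgroup.mem_map_iff_mem φ.injective, ← map_inv, ← map_mul, ← map_mul,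
      Subgroup.mem_map_iff_mem φ.injective] at h1

theorem sylow_count_two [IsSimpleGroup G] (h : Nat.card G = 168) : Nat.card (Sylow 2 G) = 21 := by
  haveI : Fact (Nat.Prime 2) := ⟨Nat.prime_two⟩
  have S : Sylow 2 G := default
  obtain ⟨φ, hφ⟩ := exists_iso_sylow h S
  rw [S.card_eq_index_normalizer]
  show (Subgroup.normalizer ((S : Subgroup G) : Set G)).index = 21
  rw [← hφ, ← map_normalizer, normalizer_S0]
  have := (S0.map φ.toMonoidHom).card_mul_index
  rw [Subgroup.card_map_of_injective φ.injective, card_S0, h] at this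
  omega

theorem sylow_count_of_element [IsSimpleGroup G] (h : Nat.card G = 168) {p : ℕ} [Fact p.Prime] (r : T)
    (l : List T) (n : ℕ) (hr : r ^ p = 1 ∧ r ≠ 1)
    (hl : ∀ x, x ∈ l ↔ ∃ i, i < p ∧ r ^ i = x) (hp : p ∣ 168 ∧ ¬ p ^ 2 ∣ 168)
    (hn : (allT.filter fun g => ∀ x ∈ l, g * x * g⁻¹ ∈ l).length * n = 168) :
    Nat.card (Sylow p G) = n := by
  obtain ⟨φ⟩ := nonempty_iso h
  have ho : orderOf r = p := orderOf_eq_prime hr.1 hr.2
  have hmem : ∀ x, x ∈ Subgroup.zpowers r ↔ x ∈ l := by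
    intro x
    rw [hl, ← mem_powers_iff_mem_zpowers, Submonoid.mem_powers_iff]
    refine ⟨fun ⟨i, hi⟩ => ⟨i % p, Nat.mod_lt _ (Nat.Prime.pos Fact.out), ?_⟩, fun ⟨i, _, hi⟩ => ⟨i, hi⟩⟩
    rw [← ho, pow_mod_orderOf, hi]
  have hc : Nat.card ((Subgroup.zpowers r).map φ.toMonoidHom) = p ^ (Nat.card G).factorization p := by
    rw [Subgroup.card_map_of_injective φ.injective, Nat.card_zpowers, ho, h]
    have h1 : 1 ≤ (168 : ℕ).factorization p :=
      (Nat.Prime.pow_dvd_iff_le_factorization Fact.out (by norm_num)).1 (by rw [pow_one]; exact hp.1)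
    have h2 : ¬ 2 ≤ (168 : ℕ).factorization p := fun h3 =>
      hp.2 ((Nat.Prime.pow_dvd_iff_le_factorization Fact.out (by norm_num)).2 h3)
    rw [show (168 : ℕ).factorization p = 1 by omega, pow_one]
  rw [(Sylow.ofCard _ hc).card_eq_index_normalizer]
  show (Subgroup.normalizer ((((Sylow.ofCard _ hc : Sylow p G)) : Subgroup G) : Set G)).index = n
  rw [Sylow.coe_ofCard, ← map_normalizer]
  have h3 := ((Subgroup.normalizer (Subgroup.zpowers r : Set T)).map φ.toMonoidHom).card_mul_index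
  rw [Subgroup.card_map_of_injective φ.injective, h,
    card_of_iff (fun g => ∀ x ∈ l, g * x * g⁻¹ ∈ l) (mem_normalizer_of_list l hmem)] at h3
  refine Nat.eq_of_mul_eq_mul_left ?_ (h3.trans hn.symm)
  rcases Nat.eq_zero_or_pos ((allT.filter fun g => ∀ x ∈ l, g * x * g⁻¹ ∈ l).length) with h4 | h4
  · rw [h4, zero_mul] at hn; omega
  · exact h4

theorem card_class {P : G → Prop} (φ : T ≃* G) (Q : T → Prop) [DecidablePred Q] (hPQ : ∀ x, P (φ x) ↔ Q x) :
    Nat.card {g : G // P g} = (allT.filter fun x => Q x).length := by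
  rw [← Nat.card_congr (Equiv.subtypeEquiv φ.toEquiv (p := fun x => P (φ x)) (fun x => Iff.rfl)),
    Nat.card_congr (Equiv.subtypeEquivRight hPQ), Nat.card_eq_fintype_card, Fintype.card_subtype]
  rfl

theorem orderOf_iff (φ : T ≃* G) (x : T) (k : ℕ) : orderOf (φ x) = k ↔ orderOf x = k := by
  rw [MulEquiv.orderOf_eq]

theorem orderOf_two (x : T) : orderOf x = 2 ↔ x ≠ 1 ∧ x * x = 1 := by
  haveI : Fact (Nat.Prime 2) := ⟨Nat.prime_two⟩
  constructor
  · intro h
    refine ⟨fun e => by rw [e, orderOf_one] at h; omega, ?_⟩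
    rw [← pow_two, ← h, pow_orderOf_eq_one]
  · exact fun h => orderOf_eq_prime (by rw [pow_two]; exact h.2) h.1

theorem orderOf_three (x : T) : orderOf x = 3 ↔ x ≠ 1 ∧ x * x * x = 1 := by
  haveI : Fact (Nat.Prime 3) := ⟨Nat.prime_three⟩
  have e : x ^ 3 = x * x * x := by rw [pow_succ, pow_two]
  constructor
  · intro h
    refine ⟨fun h1 => by rw [h1, orderOf_one] at h; omega, ?_⟩
    rw [← e, ← h, pow_orderOf_eq_one]
  · exact fun h => orderOf_eq_prime (by rw [e]; exact h.2) h.1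

theorem orderOf_four (x : T) : orderOf x = 4 ↔ x * x ≠ 1 ∧ x * x * (x * x) = 1 := by
  haveI : Fact (Nat.Prime 2) := ⟨Nat.prime_two⟩
  have e : x ^ 4 = x * x * (x * x) := by simp only [pow_succ, pow_zero, one_mul, mul_assoc]
  constructor
  · intro h
    refine ⟨fun h1 => ?_, by rw [← e, ← h, pow_orderOf_eq_one]⟩
    have := orderOf_le_of_pow_eq_one (x := x) (n := 2) two_pos (by rw [pow_two]; exact h1)
    omega
  · intro h
    exact orderOf_eq_prime_pow (p := 2) (n := 1) (by rw [pow_one, pow_two]; exact h.1) (by rw [show 2 ^ (1 + 1) = 4 from rfl, e]; exact h.2)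

theorem orderOf_seven (x : T) : orderOf x = 7 ↔ x ≠ 1 ∧ x * x * x * (x * x * x) * x = 1 := by
  haveI : Fact (Nat.Prime 7) := ⟨by norm_num⟩
  have e : x ^ 7 = x * x * x * (x * x * x) * x := by
    simp only [pow_succ, pow_zero, one_mul, mul_assoc]
  constructor
  · intro h
    refine ⟨fun h1 => by rw [h1, orderOf_one] at h; omega, ?_⟩
    rw [← e, ← h, pow_orderOf_eq_one]
  · exact fun h => orderOf_eq_prime (by rw [e]; exact h.2) h.1

theorem isConj_of {φ : T ≃* G} {r x : T} (h : ∃ y : T, y * r * y⁻¹ = x) : IsConj (φ r) (φ x) := by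
  obtain ⟨y, rfl⟩ := h
  exact isConj_iff.2 ⟨φ y, by rw [map_mul, map_mul, map_inv]⟩

end CfsgLib.L168
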