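import Cfsg.Agent.L168.Klein
import Cfsg.Agent.L168.Transfer

/-!
Four-groups and maximal subgroups of the model of the simple group of order 168.
-/

set_option autoImplicit false

namespace CfsgLib.L168

/-- The subgroup on a closed list of involutions. -/
def L1 : Subgroup T where
  carrier := {x | x ∈ l1}
  one_mem' := l1_closed.1
  mul_mem' := fun hx hy => (l1_closed.2.1 _ hx).2 _ hy
  inv_mem' := fun {x} hx => by
    show x⁻¹ ∈ l1
    rwa [inv_eq_of_mul_eq_one_left (l1_closed.2.1 _ hx).1]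

/-- The second four-group. -/
def L2 : Subgroup T where
  carrier := {x | x ∈ l2}
  one_mem' := l2_closed.1
  mul_mem' := fun hx hy => (l2_closed.2.1 _ hx).2 _ hy
  inv_mem' := fun {x} hx => by
    show x⁻¹ ∈ l2
    rwa [inv_eq_of_mul_eq_one_left (l2_closed.2.1 _ hx).1]

theorem card_L1 : Nat.card L1 = 4 := by
  rw [card_of_iff (H := L1) (fun x => x ∈ l1) fun x => Iff.rfl]; decide +kernel

theorem card_L2 : Nat.card L2 = 4 := by
  rw [card_of_iff (H := L2) (fun x => x ∈ l2) fun x => Iff.rfl]; decide +kernel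

theorem normalizer_L1 : Subgroup.normalizer (L1 : Set T) = N1 :=
  Subgroup.ext fun g => (mem_normalizer_of_list l1 (fun _ => Iff.rfl) g).trans (l1_norm g)

theorem normalizer_L2 : Subgroup.normalizer (L2 : Set T) = N2 :=
  Subgroup.ext fun g => (mem_normalizer_of_list l2 (fun _ => Iff.rfl) g).trans (l2_norm g)

theorem kleinFour_of {G : Type*} [Group G] {U : Subgroup G} (hc : Nat.card U = 4) (hs : ∀ x ∈ U, x * x = 1) :
    IsKleinFour U := by
  refine ⟨hc, ?_⟩
  haveI : Finite U := Nat.finite_of_card_ne_zero (by omega)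
  haveI : Nontrivial U := Finite.one_lt_card_iff_nontrivial.1 (by omega)
  exact (Monoid.exponent_eq_prime_iff Nat.prime_two).2 fun g hg =>
    orderOf_eq_prime (by rw [pow_two]; exact Subtype.ext (hs _ g.2)) hg

theorem klein_L1 : IsKleinFour L1 := kleinFour_of card_L1 fun x hx => (l1_closed.2.1 x hx).1

theorem klein_L2 : IsKleinFour L2 := kleinFour_of card_L2 fun x hx => (l2_closed.2.1 x hx).1

theorem eq_of_three {A B : Subgroup T} (hA : Nat.card A = 4) (hB : Nat.card B = 4) {s t : T} (hs : s ≠ 1) (ht : t ≠ 1)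
    (hst : s ≠ t) (hsA : s ∈ A) (hsB : s ∈ B) (htA : t ∈ A) (htB : t ∈ B) : A = B := by
  have h1 : 3 ≤ Nat.card (A ⊓ B : Subgroup T) := by
    have hsub : ({1, s, t} : Finset T).card ≤ Nat.card (A ⊓ B : Subgroup T) := by
      rw [← Nat.card_eq_finsetCard]
      refine Nat.card_le_card_of_injective (fun x : ↥({1, s, t} : Finset T) => (⟨(x : T), ?_⟩ : (A ⊓ B : Subgroup T)))
        fun a b hab => Subtype.ext (congrArg (fun w : (A ⊓ B : Subgroup T) => (w : T)) hab :)
      have := x.2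
      simp only [Finset.mem_insert, Finset.mem_singleton] at this
      rcases this with h | h | h <;> rw [h]
      · exact one_mem _
      · exact ⟨hsA, hsB⟩
      · exact ⟨htA, htB⟩
    rwa [Finset.card_insert_of_notMem (by simp [Ne.symm hs, Ne.symm ht]),
      Finset.card_insert_of_notMem (by simpa using hst), Finset.card_singleton] at hsub
  have h2 := Subgroup.card_dvd_of_le (inf_le_left : A ⊓ B ≤ A)
  rw [hA] at h2
  have h3 : Nat.card (A ⊓ B : Subgroup T) = 4 := by
    have := Nat.le_of_dvd (by norm_num) h2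
    interval_cases h4 : Nat.card (A ⊓ B : Subgroup T) <;> omega
  have h5 : A ⊓ B = A := Subgroup.eq_of_le_of_card_ge inf_le_left (by omega)
  have h6 : A ⊓ B = B := Subgroup.eq_of_le_of_card_ge inf_le_right (by omega)
  exact h5.symm.trans h6

theorem exists_two {U : Subgroup T} (hU : IsKleinFour U) :
    ∃ s t : T, s ∈ U ∧ t ∈ U ∧ s ≠ 1 ∧ t ≠ 1 ∧ s ≠ t ∧ s * s = 1 ∧ t * t = 1 ∧ s * t = t * s := by
  classical
  haveI := hU
  obtain ⟨s, hs⟩ := Fintype.exists_ne_of_one_lt_card (α := U)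
    (by rw [← Nat.card_eq_fintype_card, IsKleinFour.card_four]; norm_num) 1
  obtain ⟨t, ht⟩ : ∃ t : U, t ≠ 1 ∧ t ≠ s := by
    have h : (({1, s} : Finset U)ᶜ).Nonempty := by
      rw [← Finset.card_pos, Finset.card_compl, ← Nat.card_eq_fintype_card, IsKleinFour.card_four]
      have := Finset.card_le_two (a := (1 : U)) (b := s)
      omega
    obtain ⟨t, ht⟩ := h
    exact ⟨t, by simpa [not_or] using ht⟩
  refine ⟨s, t, s.2, t.2, fun e => hs (Subtype.ext e), fun e => ht.1 (Subtype.ext e),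
    fun e => ht.2 (Subtype.ext e.symm), ?_, ?_, ?_⟩
  · exact congrArg Subtype.val (IsKleinFour.mul_self s)
  · exact congrArg Subtype.val (IsKleinFour.mul_self t)
  · exact congrArg Subtype.val (by
      rw [← IsKleinFour.inv_eq_self (s * t), mul_inv_rev, IsKleinFour.inv_eq_self, IsKleinFour.inv_eq_self] : s * t = t * s)

theorem klein_conj {U : Subgroup T} (hU : IsKleinFour U) :
    ∃ g : T, U.map (MulAut.conj g).toMonoidHom = L1 ∨ U.map (MulAut.conj g).toMonoidHom = L2 := by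
  obtain ⟨s, t, hs, ht, hs1, ht1, hst, hss, htt, hc⟩ := exists_two hU
  obtain ⟨g, h⟩ := pair_fours s hss t htt hs1 ht1 hst hc
  haveI := hU
  have hc4 : Nat.card (U.map (MulAut.conj g).toMonoidHom) = 4 := by
    rw [Subgroup.card_map_of_injective (MulAut.conj g).injective, IsKleinFour.card_four]
  have e : ∀ {x : T}, x ∈ U → g * x * g⁻¹ ∈ U.map (MulAut.conj g).toMonoidHom := fun hx => ⟨_, hx, rfl⟩
  have n1 : g * s * g⁻¹ ≠ 1 := fun h => hs1 (conj_eq_one_iff.1 h)
  have n2 : g * t * g⁻¹ ≠ 1 := fun h => ht1 (conj_eq_one_iff.1 h)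
  have n3 : g * s * g⁻¹ ≠ g * t * g⁻¹ := fun h => hst (mul_left_cancel (mul_right_cancel h))
  refine ⟨g, h.imp (fun h => ?_) (fun h => ?_)⟩
  · exact eq_of_three hc4 card_L1 n1 n2 n3 (e hs) h.1 (e ht) h.2
  · exact eq_of_three hc4 card_L2 n1 n2 n3 (e hs) h.1 (e ht) h.2

/-- The four-groups in `S0`. -/
theorem klein_S0 {U : Subgroup T} (hU : IsKleinFour U) (hle : U ≤ S0) :
    U = L1 ∨ U = L2.map (MulAut.conj g2).toMonoidHom := by
  obtain ⟨s, t, hs, ht, hs1, ht1, hst, hss, htt, hc⟩ := exists_two hU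
  haveI := hU
  have hm : ∀ {x : T}, x * x = 1 → x ∈ invs := fun hx => List.mem_filter.2 ⟨mem_allT _, decide_eq_true hx⟩
  have hc2 : Nat.card (L2.map (MulAut.conj g2).toMonoidHom) = 4 := by
    rw [Subgroup.card_map_of_injective (MulAut.conj g2).injective, card_L2]
  rcases pair_t0 s (hm hss) ((mem_cent t0 s).1 (hle hs)) t (hm htt) ((mem_cent t0 t).1 (hle ht)) hc hs1 ht1 hst
    with h | h
  · exact Or.inl (eq_of_three IsKleinFour.card_four card_L1 hs1 ht1 hst hs h.1 ht h.2)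
  · refine Or.inr (eq_of_three IsKleinFour.card_four hc2 hs1 ht1 hst hs ⟨_, h.1, ?_⟩ ht ⟨_, h.2, ?_⟩) <;>
    · show g2 * _ * g2⁻¹ = _
      group

theorem L1_le_S0 : L1 ≤ S0 := fun x hx => (mem_cent t0 x).2 (t0_mem_fours.1 x hx)

theorem L2_le_S0 : L2.map (MulAut.conj g2).toMonoidHom ≤ S0 := by
  rintro _ ⟨x, hx, rfl⟩
  exact (mem_cent t0 _).2 (t0_mem_fours.2 x hx)

theorem L_not_conj (g : T) : L1.map (MulAut.conj g).toMonoidHom ≠ L2 := fun h => by
  obtain ⟨x, hx, hgx⟩ := l1_not_conj_l2 g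
  exact hgx (show g * x * g⁻¹ ∈ L2 from h ▸ ⟨x, hx, rfl⟩)

theorem S0_le_N1 : S0 ≤ N1 := by
  intro x hx
  have key : ∀ y : T, t0 * y = y * t0 → y ∈ N1 := by decide +kernel
  exact key x ((mem_cent t0 x).1 hx)

/-- The powers of `p7`. -/
def l7 : List T := (List.range 7).map (p7 ^ ·)

/-- The normaliser of a Sylow 7-subgroup. -/
abbrev N7 : Subgroup T := Subgroup.normalizer (Subgroup.zpowers p7 : Set T)

theorem orderOf_p7 : orderOf p7 = 7 := (orderOf_seven p7).2 (by decide +kernel)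

theorem mem_zpowers_p7 (x : T) : x ∈ Subgroup.zpowers p7 ↔ x ∈ l7 := by
  rw [← mem_powers_iff_mem_zpowers, Submonoid.mem_powers_iff, l7, List.mem_map]
  simp only [List.mem_range]
  refine ⟨fun ⟨i, hi⟩ => ⟨i % 7, Nat.mod_lt _ (by norm_num), ?_⟩, fun ⟨i, _, hi⟩ => ⟨i, hi⟩⟩
  rw [← orderOf_p7, pow_mod_orderOf, hi]

theorem mem_N7 (g : T) : g ∈ N7 ↔ ∀ x ∈ l7, g * x * g⁻¹ ∈ l7 := mem_normalizer_of_list l7 mem_zpowers_p7 g

theorem card_N7 : Nat.card N7 = 21 := by
  rw [card_of_iff (H := N7) (fun g => ∀ x ∈ l7, g * x * g⁻¹ ∈ l7) mem_N7]; decide +kernel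

theorem N7_noncomm : ¬ IsMulCommutative N7 := by
  intro h
  have key : ∃ g : T, (∀ x ∈ l7, g * x * g⁻¹ ∈ l7) ∧ g * p7 ≠ p7 * g := by decide +kernel
  obtain ⟨g, hg, hne⟩ := key
  exact hne (congrArg Subtype.val (h.is_comm.comm ⟨g, (mem_N7 g).2 hg⟩ ⟨p7, Subgroup.le_normalizer (Subgroup.mem_zpowers _)⟩))

theorem card_N1 : Nat.card N1 = 24 := by
  rw [Nat.card_congr iso_N1.some.toEquiv, Nat.card_perm, Nat.card_fin]; rfl

theorem card_N2 : Nat.card N2 = 24 := by
  rw [Nat.card_congr iso_N2.some.toEquiv, Nat.card_perm, Nat.card_fin]; rfl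

theorem N_not_conj (g : T) : N1.map (MulAut.conj g).toMonoidHom ≠ N2 := fun h => by
  have key : ∀ g : T, ∃ x, x ∈ N1 ∧ g * x * g⁻¹ ∉ N2 := by decide +kernel
  obtain ⟨x, hx, hgx⟩ := key g
  exact hgx (h ▸ ⟨x, hx, rfl⟩)

theorem index_ge {H : Subgroup T} (h : H ≠ ⊤) : 7 ≤ H.index := by
  haveI := isSimple
  have hne : H.normalCore = ⊥ := H.normalCore_normal.eq_bot_or_eq_top.resolve_right
    fun e => h (top_le_iff.1 (e ▸ H.normalCore_le))
  have hinj : Function.Injective (MulAction.toPermHom T (T ⧸ H)) := by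
    rw [← MonoidHom.ker_eq_bot_iff, ← Subgroup.normalCore_eq_ker, hne]
  have h2 := Subgroup.card_dvd_of_injective _ hinj
  rw [card_T, Nat.card_perm, ← Subgroup.index_eq_card] at h2
  exact (Nat.Prime.dvd_factorial (by norm_num : Nat.Prime 7)).1 ((by norm_num : 7 ∣ 168).trans h2)

/-- Every proper subgroup lies in a conjugate of `N1`, `N2` or `N7`. -/
theorem le_maximal (H : Subgroup T) (hH : H ≠ ⊤) : ∃ g : T, H.map (MulAut.conj g).toMonoidHom ≤ N1 ∨
    H.map (MulAut.conj g).toMonoidHom ≤ N2 ∨ H.map (MulAut.conj g).toMonoidHom ≤ N7 := by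
  haveI : Fact (Nat.Prime 7) := ⟨by norm_num⟩
  haveI : Fact (Nat.Prime 3) := ⟨Nat.prime_three⟩
  haveI : Fact (Nat.Prime 2) := ⟨Nat.prime_two⟩
  have h1 := H.card_mul_index
  rw [card_T] at h1
  have h2 := index_ge hH
  have hpos : 0 < Nat.card H := Nat.card_pos
  have h3 : Nat.card H ≤ 24 := by nlinarith
  by_cases h7 : 7 ∣ Nat.card H
  · obtain ⟨v, hv⟩ := exists_prime_orderOf_dvd_card' 7 h7
    have hv' : orderOf (v : T) = 7 := by rw [Subgroup.orderOf_coe, hv]
    obtain ⟨x, hx⟩ := seven_conj (v : T) ((orderOf_seven _).1 hv').1 ((orderOf_seven _).1 hv').2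
    refine ⟨x⁻¹, Or.inr (Or.inr ?_)⟩
    set K := H.map (MulAut.conj x⁻¹).toMonoidHom with hK
    have hp : p7 ∈ K := by
      rcases hx with hx | hx
      · refine ⟨v, v.2, ?_⟩
        show x⁻¹ * v * x⁻¹⁻¹ = p7
        rw [← hx]; group
      · refine ⟨(v : T)⁻¹, inv_mem v.2, ?_⟩
        show x⁻¹ * (v : T)⁻¹ * x⁻¹⁻¹ = p7
        rw [← hx]; group
    have hKc : Nat.card K ≤ 24 := by
      rw [hK, Subgroup.card_map_of_injective (MulAut.conj x⁻¹).injective]; exact h3
    have hsub : Subgroup.zpowers p7 ≤ K := Subgroup.zpowers_le.2 hp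
    have hKd : Nat.card K ∣ 168 := card_T ▸ K.card_subgroup_dvd_card
    have hm := ((Subgroup.zpowers p7).subgroupOf K).card_mul_index
    rw [Nat.card_congr (Subgroup.subgroupOfEquivOfLe hsub).toEquiv, Nat.card_zpowers, orderOf_p7] at hm
    let P : Sylow 7 K := IsPGroup.toSylow (p := 7) (IsPGroup.of_card (n := 1) (by
        rw [Nat.card_congr (Subgroup.subgroupOfEquivOfLe hsub).toEquiv, Nat.card_zpowers, orderOf_p7, pow_one]))
      (fun h => by
        obtain ⟨c, hc⟩ := h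
        rw [hc] at hm
        have : 49 ∣ 168 := (Dvd.intro c (by rw [← mul_assoc] at hm; exact hm)).trans hKd
        norm_num at this)
    have hP : (P : Subgroup K) = (Subgroup.zpowers p7).subgroupOf K := IsPGroup.toSylow_coe _ _
    have hn1 : Nat.card (Sylow 7 K) ∣ ((Subgroup.zpowers p7).subgroupOf K).index := hP ▸ P.card_dvd_index
    have hn2 : Nat.card (Sylow 7 K) ≡ 1 [MOD 7] := card_sylow_modEq_one 7 K
    have hidx : 0 < ((Subgroup.zpowers p7).subgroupOf K).index := by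
      refine Nat.pos_of_ne_zero fun h0 => ?_
      rw [h0, mul_zero] at hm
      exact Nat.card_pos.ne hm
    have hle := Nat.le_of_dvd hidx hn1
    have hone : Nat.card (Sylow 7 K) = 1 := by
      unfold Nat.ModEq at hn2
      have : 0 < Nat.card (Sylow 7 K) := Nat.card_pos
      omega
    haveI : Subsingleton (Sylow 7 K) := (Nat.card_eq_one_iff_unique.1 hone).1
    haveI hnorm : ((Subgroup.zpowers p7).subgroupOf K).Normal := hP ▸ Sylow.normal_of_subsingleton P
    exact (Subgroup.normal_subgroupOf_iff_le_normalizer hsub).1 hnorm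
  · by_cases h3d : 3 ∣ Nat.card H
    · obtain ⟨v, hv⟩ := exists_prime_orderOf_dvd_card' 3 h3d
      have hv' : orderOf (v : T) = 3 := by rw [Subgroup.orderOf_coe, hv]
      obtain ⟨x, hx⟩ := three_conj (v : T) ((orderOf_three _).1 hv').1 ((orderOf_three _).1 hv').2
      set K := H.map (MulAut.conj x⁻¹).toMonoidHom with hK
      have hr : r3 ∈ K := ⟨v, v.2, by show x⁻¹ * v * x⁻¹⁻¹ = r3; rw [← hx]; group⟩
      have hcov : ∀ y ∈ K, y ∈ N1 ∨ y ∈ N2 := by
        intro y hy
        rcases seven_of_outside.2.2 y with h | h | ⟨w, hw, hw1, hw7⟩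
        · exact Or.inl h
        · exact Or.inr h
        · exfalso
          have hwK : w ∈ K := by
            simp only [List.mem_cons, List.not_mem_nil, or_false] at hw
            rcases hw with rfl | rfl | rfl | rfl | rfl | rfl | rfl | rfl <;>
              repeat' first | exact hy | exact hr | apply mul_mem | apply inv_mem
          refine h7 ?_
          have h9 := Subgroup.orderOf_dvd_natCard K hwK
          rwa [(orderOf_seven w).2 ⟨hw1, hw7⟩, hK, Subgroup.card_map_of_injective (MulAut.conj x⁻¹).injective] at h9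
      refine ⟨x⁻¹, ?_⟩
      by_contra hno
      push Not at hno
      obtain ⟨a, ha, ha1⟩ := SetLike.not_le_iff_exists.1 hno.1
      obtain ⟨b, hb, hb2⟩ := SetLike.not_le_iff_exists.1 hno.2.1
      rcases hcov _ (mul_mem ha hb) with h | h
      · exact ha1 ((N1.mul_mem_cancel_right ((hcov b hb).resolve_right hb2)).1 h)
      · exact hb2 ((N2.mul_mem_cancel_left ((hcov a ha).resolve_left ha1)).1 h)
    · have h8 : Nat.card H ∣ 8 := by
        have hd : Nat.card H ∣ 8 * 21 := Dvd.intro _ h1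
        refine Nat.Coprime.dvd_of_dvd_mul_right ?_ hd
        rw [show (21 : ℕ) = 3 * 7 from rfl]
        exact Nat.Coprime.mul_right ((Nat.Prime.coprime_iff_not_dvd Nat.prime_three).2 h3d).symm
          ((Nat.Prime.coprime_iff_not_dvd (by norm_num)).2 h7).symm
      obtain ⟨k, -, hk⟩ := (Nat.dvd_prime_pow Nat.prime_two).1 (show Nat.card H ∣ 2 ^ 3 from h8)
      obtain ⟨S, hS⟩ := (IsPGroup.of_card (p := 2) (G := H) hk).exists_le_sylow
      obtain ⟨S', hS'⟩ := exists_sylow_S0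
      obtain ⟨g, hg⟩ := MulAction.exists_smul_eq T S S'
      refine ⟨g, Or.inl ((Subgroup.map_mono hS).trans ?_)⟩
      refine le_trans ?_ S0_le_N1
      rw [← hS', ← hg, Sylow.coe_subgroup_smul]
      exact le_rfl

end CfsgLib.L168
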