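import Cfsg.Agent.L168.Facts

/-!
Sylow subgroups, four-groups and their normalisers in the simple group of order 168.
-/

set_option autoImplicit false

namespace CfsgLib.L168

/-- Membership in the normaliser of a cyclic subgroup, in terms of a list of its elements. -/
theorem mem_normalizer_of_list {H : Subgroup T} (l : List T) (hl : ∀ x, x ∈ H ↔ x ∈ l) (g : T) :
    g ∈ Subgroup.normalizer (H : Set T) ↔ ∀ x ∈ l, g * x * g⁻¹ ∈ l := by
  constructor
  · exact fun h x hx => (hl _).1 ((Subgroup.mem_normalizer_iff.1 h x).1 ((hl x).2 hx))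
  · intro h
    rw [Subgroup.mem_normalizer_iff_map_conj_eq]
    refine Subgroup.eq_of_le_of_card_ge ?_ ?_
    · rintro _ ⟨x, hx, rfl⟩
      exact (hl _).2 (h x ((hl x).1 hx))
    · rw [Subgroup.card_map_of_injective (MulAut.conj g).injective]

/-- The cardinality of a subgroup given by a decidable condition. -/
theorem card_of_iff {H : Subgroup T} (p : T → Prop) [DecidablePred p] (hp : ∀ x, x ∈ H ↔ p x) :
    Nat.card H = (allT.filter fun x => p x).length := by
  rw [Nat.card_congr (Equiv.subtypeEquivRight hp), Nat.card_eq_fintype_card, Fintype.card_subtype]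
  rfl

theorem mem_cent (g x : T) : x ∈ Subgroup.centralizer ({g} : Set T) ↔ g * x = x * g := by
  rw [Subgroup.mem_centralizer_singleton_iff, eq_comm]

/-- A Sylow 2-subgroup. -/
def S0 : Subgroup T := Subgroup.centralizer ({t0} : Set T)

theorem card_S0 : Nat.card S0 = 8 := by
  rw [card_of_iff (H := S0) (fun x => t0 * x = x * t0) (mem_cent t0)]
  decide +kernel

theorem normalizer_S0 : Subgroup.normalizer (S0 : Set T) = S0 := by
  refine le_antisymm (fun g hg => ?_) Subgroup.le_normalizer
  refine (mem_cent t0 g).2 (t0_self g fun x hx => ?_).symm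
  exact ((mem_cent t0 _).1 ((Subgroup.mem_normalizer_iff.1 hg x).1 ((mem_cent t0 x).2 hx.symm))).symm

theorem center_S0 {z : T} (hz1 : z ≠ 1) (hc : ∀ t ∈ S0, t * z = z * t) :
    Subgroup.centralizer ({z} : Set T) = S0 := by
  have hle : S0 ≤ Subgroup.centralizer ({z} : Set T) := fun t ht => (mem_cent z t).2 (hc t ht).symm
  refine (Subgroup.eq_of_le_of_card_ge hle ?_).symm
  have h := Subgroup.card_le_of_le hle
  rw [card_S0, card_of_iff (fun x => z * x = x * z) (mem_cent z)] at h
  rw [card_S0, card_of_iff (fun x => z * x = x * z) (mem_cent z), (cent_ge z hz1 h).2]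

/-- A Sylow 2-subgroup, as such. -/
theorem exists_sylow_S0 : ∃ S : Sylow 2 T, (S : Subgroup T) = S0 := by
  haveI : Fact (Nat.Prime 2) := ⟨Nat.prime_two⟩
  refine ⟨Sylow.ofCard S0 ?_, Sylow.coe_ofCard _ _⟩
  rw [card_S0, card_T]
  rw [Nat.factorization_def _ Nat.prime_two, show (168 : ℕ) = 2 ^ 3 * 21 from rfl,
    padicValNat.mul (by norm_num) (by norm_num), padicValNat.prime_pow,
    padicValNat.eq_zero_of_not_dvd (n := 21) (by norm_num)]
  norm_num

/-- The dihedral group of order eight inside the model. -/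
def dih : DihedralGroup 4 → T
  | .r i => a4 ^ i.val
  | .sr i => u1 * a4 ^ i.val

theorem dih_mul : ∀ x y, dih (x * y) = dih x * dih y := by decide +kernel

theorem dih_inj : ∀ x y, dih x = dih y → x = y := by decide +kernel

theorem dih_mem : ∀ x, t0 * dih x = dih x * t0 := by decide +kernel

theorem dihedral_S0 : Nonempty (S0 ≃* DihedralGroup 4) := by
  let f : DihedralGroup 4 →* S0 := MonoidHom.mk' (fun x => ⟨dih x, (mem_cent t0 _).2 (dih_mem x)⟩)
    fun x y => Subtype.ext (dih_mul x y)
  have hi : Function.Injective f := fun x y h => dih_inj x y (congrArg Subtype.val h)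
  have hb : Function.Bijective f := (Nat.bijective_iff_injective_and_card f).2
    ⟨hi, by rw [card_S0, Nat.card_eq_fintype_card, DihedralGroup.card]⟩
  exact ⟨(MulEquiv.ofBijective f hb).symm⟩

end CfsgLib.L168
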